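import Mathlib
import Cfsg.Agent.Lib.Helper38.DG33.RCommon

/-!
# DG33 (S3670), [RAW] sub-package [RBPT]: `B = P ⟨t⟩`
-/

set_option autoImplicit false

namespace Cfsg.Agent.Lib.Helper38.DG33

open Matrix Cfsg.Agent.Lib.Helper45 Cfsg.Agent.Lib.Helper86.Un Cfsg.Agent.Lib.Helper86.SU3
  Cfsg.Agent.Lib.Helper86.SL3 Cfsg.Agent.Lib.Helper14.DG33 Cfsg.Agent.Lib.Helper19.DG33

universe u

/-- [RBPT] -/
theorem pkgRBPT : PkgRBPT.{u} := by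
  intro F _ _ hF ζ hζ b hb
  obtain ⟨h1, h2⟩ := bm_diag hF b hb
  have ha : mat b 0 0 ≠ 0 := by
    intro h0
    rw [h0, mul_zero] at h1
    exact zero_ne_one h1
  obtain ⟨k, hk⟩ := exists_pow_of_order hF ζ hζ (Units.mk0 (mat b 0 0) ha)⁻¹
  refine ⟨k, ?_⟩
  apply mem_Pm_of_one hF _ ((Bm hF).mul_mem hb (pow_mem (tm_mem_Bm hF ζ) k))
  rw [tm_pow, hk, mat_mul', mat_tm]
  obtain ⟨g1, g2, g3⟩ := hb
  simp only [Matrix.mul_apply, Fin.sum_univ_three]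
  simp [T3, D3, ha]

end Cfsg.Agent.Lib.Helper38.DG33
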