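import Mathlib
import Cfsg.Agent.Lib.Helper14.DG33.Defs
import Cfsg.Agent.Lib.Helper3.FrobInd
import Cfsg.Agent.Lib.Helper75.CharInd
import Cfsg.Agent.Lib.Helper75.Clifford
import Cfsg.Agent.Lib.Helper80.PrimeCodeg

/-!
# DG33 (S3670): package [SOLV]

`AGL₁(R)` for `R = GF(8) × ℤ/18`: a solvable group of order `6048` with an irreducible character
of degree `42`.
-/

set_option autoImplicit false

namespace Cfsg.Agent.Lib.Helper38.DG33

open Cfsg.Agent.Lib.Helper14.DG33

section agl

variable (R : Type) [CommRing R]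

/-- the action of the units of `R` on its additive group -/
def aglPhi : Rˣ →* MulAut (Multiplicative R) where
  toFun u :=
    { toFun := fun m => Multiplicative.ofAdd ((u : R) * Multiplicative.toAdd m)
      invFun := fun m => Multiplicative.ofAdd (((u⁻¹ : Rˣ) : R) * Multiplicative.toAdd m)
      left_inv := fun m => by simp [← mul_assoc]
      right_inv := fun m => by simp [← mul_assoc]
      map_mul' := fun a b => by
        show Multiplicative.ofAdd ((u : R) * (Multiplicative.toAdd a + Multiplicative.toAdd b)) = _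
        rw [mul_add]; rfl }
  map_one' := by
    ext m
    show Multiplicative.ofAdd (((1 : Rˣ) : R) * Multiplicative.toAdd m) = m
    simp
  map_mul' u v := by
    ext m
    show Multiplicative.ofAdd (((u * v : Rˣ) : R) * Multiplicative.toAdd m)
      = Multiplicative.ofAdd ((u : R) * ((v : R) * Multiplicative.toAdd m))
    rw [Units.val_mul, mul_assoc]

theorem aglPhi_apply (u : Rˣ) (m : Multiplicative R) :
    aglPhi R u m = Multiplicative.ofAdd ((u : R) * Multiplicative.toAdd m) := rfl

/-- the affine group `R ⋊ Rˣ` -/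
abbrev Agl : Type := Multiplicative R ⋊[aglPhi R] Rˣ

theorem agl_conj_left (x : Agl R) (m : Multiplicative R) :
    (x⁻¹ * SemidirectProduct.inl m * x).left
      = Multiplicative.ofAdd (((x.right⁻¹ : Rˣ) : R) * Multiplicative.toAdd m) := by
  simp only [SemidirectProduct.mul_left, SemidirectProduct.mul_right, SemidirectProduct.inv_left,
    SemidirectProduct.inv_right, SemidirectProduct.left_inl, SemidirectProduct.right_inl, mul_one]
  rw [← map_mul, ← map_mul, mul_comm x.left⁻¹ m, inv_mul_cancel_right, aglPhi_apply]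

theorem agl_irr [Finite R] (Ψ : AddChar R ℂ)
    (hΨ : ∀ u : Rˣ, (∀ r : R, Ψ ((u : R) * r) = Ψ r) → u = 1) :
    ∃ (_ : Fintype (Agl R)) (χ : Agl R → ℂ), Cfsg.IsIrrCharacter (Agl R) χ ∧
      χ 1 = (Nat.card Rˣ : ℂ) := by
  classical
  have : Finite (Agl R) := Finite.of_equiv _ (SemidirectProduct.equivProd (φ := aglPhi R)).symm
  let _ : Fintype (Agl R) := Fintype.ofFinite _
  refine ⟨inferInstance, ?_⟩
  have hN : ((SemidirectProduct.rightHom : Agl R →* Rˣ).ker).Normal := inferInstance
  let L : ↥((SemidirectProduct.rightHom : Agl R →* Rˣ).ker) →* Multiplicative R :=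
    { toFun := fun x => x.1.left
      map_one' := rfl
      map_mul' := fun x y => by
        have hx : (x.1).right = 1 := x.2
        show (x.1 * y.1).left = x.1.left * y.1.left
        rw [SemidirectProduct.mul_left, hx, map_one]
        rfl }
  let Θ : ↥((SemidirectProduct.rightHom : Agl R →* Rˣ).ker) →* ℂˣ :=
    (Ψ.toMonoidHom.toHomUnits).comp L
  have hΘ : ∀ x : ↥((SemidirectProduct.rightHom : Agl R →* Rˣ).ker),
      ((Θ x : ℂˣ) : ℂ) = Ψ (Multiplicative.toAdd x.1.left) := by
    intro x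
    show ((Ψ.toMonoidHom.toHomUnits (L x) : ℂˣ) : ℂ) = _
    rw [MonoidHom.coe_toHomUnits, AddChar.toMonoidHom_apply]
    rfl
  refine ⟨Cfsg.indFun ((SemidirectProduct.rightHom : Agl R →* Rˣ).ker)
      (fun x => ((Θ x : ℂˣ) : ℂ)),
    Cfsg.Agent.Lib.Helper3.isIrrCharacter_indFun_of_inertia _
      (Cfsg.Agent.Lib.Helper80.isIrrCharacter_of_hom Θ) ?_, ?_⟩
  · intro x hx
    rw [MonoidHom.mem_ker]
    have hu : (x.right)⁻¹ = 1 := by
      apply hΨ
      intro r
      have hmem : (SemidirectProduct.inl (Multiplicative.ofAdd r) : Agl R)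
          ∈ (SemidirectProduct.rightHom : Agl R →* Rˣ).ker := by
        rw [MonoidHom.mem_ker]; rfl
      have hmem' : x⁻¹ * (SemidirectProduct.inl (Multiplicative.ofAdd r) : Agl R) * x
          ∈ (SemidirectProduct.rightHom : Agl R →* Rˣ).ker := by
        rw [MonoidHom.mem_ker, map_mul, map_mul, MonoidHom.mem_ker.1 hmem, mul_one, map_inv,
          inv_mul_cancel]
      have h1 := congrFun hx ⟨_, hmem⟩
      rw [Cfsg.Agent.Lib.Helper75.conjChar_val _ _ x ⟨_, hmem⟩ hmem'] at h1
      rw [hΘ, hΘ] at h1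
      simp only [agl_conj_left, SemidirectProduct.left_inl] at h1
      exact h1
    exact inv_eq_one.1 hu
  · rw [Cfsg.Agent.Lib.Helper75.indFun_one, hΘ]
    have hidx : ((SemidirectProduct.rightHom : Agl R →* Rˣ).ker).index = Nat.card Rˣ := by
      rw [Subgroup.index_ker, MonoidHom.range_eq_top.2 SemidirectProduct.rightHom_surjective,
        Subgroup.card_top]
    rw [hidx]
    show (Nat.card Rˣ : ℂ) * Ψ 0 = _
    rw [AddChar.map_zero_eq_one, mul_one]

theorem agl_solvable : Group.IsSolvable (Agl R) :=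
  Group.isSolvable_of_ker_le_range (SemidirectProduct.inl : Multiplicative R →* Agl R)
    (SemidirectProduct.rightHom : Agl R →* Rˣ)
    (le_of_eq SemidirectProduct.range_inl_eq_ker_rightHom.symm)

theorem agl_card : Nat.card (Agl R) = Nat.card R * Nat.card Rˣ := by
  rw [SemidirectProduct.card]
  rfl

end agl

section concrete

theorem exists_char_F8 : ∃ ψ : AddChar (GaloisField 2 3) ℂ, ψ.IsPrimitive := by
  have hker : LinearMap.ker (Algebra.linearMap (ZMod 2) (GaloisField 2 3)) = ⊥ := by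
    rw [LinearMap.ker_eq_bot]
    exact (algebraMap (ZMod 2) (GaloisField 2 3)).injective
  obtain ⟨g, hg⟩ := LinearMap.exists_leftInverse_of_injective _ hker
  have hg1 : g 1 = 1 := by
    have := congrArg (fun f : ZMod 2 →ₗ[ZMod 2] ZMod 2 => f 1) hg
    simpa using this
  have hζ : ((-1 : ℂ)) ^ 2 = 1 := by norm_num
  refine ⟨(AddChar.zmodChar 2 hζ).compAddMonoidHom g.toAddMonoidHom,
    AddChar.IsPrimitive.of_ne_one ?_⟩
  intro h
  have h1 := congrArg (fun χ : AddChar (GaloisField 2 3) ℂ => χ 1) h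
  simp only [AddChar.compAddMonoidHom_apply, LinearMap.toAddMonoidHom_coe, hg1,
    AddChar.zmodChar_apply, AddChar.one_apply] at h1
  have hv : (1 : ZMod 2).val = 1 := by decide
  rw [hv] at h1
  norm_num at h1

theorem exists_char_R : ∃ Ψ : AddChar (GaloisField 2 3 × ZMod 18) ℂ,
    ∀ u : (GaloisField 2 3 × ZMod 18)ˣ,
      (∀ r : GaloisField 2 3 × ZMod 18, Ψ ((u : GaloisField 2 3 × ZMod 18) * r) = Ψ r) →
        u = 1 := by
  obtain ⟨ψ₁, hψ₁⟩ := exists_char_F8
  have hp := Complex.isPrimitiveRoot_exp 18 (by norm_num)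
  have hψ₂ := AddChar.zmodChar_primitive_of_primitive_root 18 hp
  generalize AddChar.zmodChar 18 ((IsPrimitiveRoot.iff_def _ 18).mp hp).left = ψ₂ at hψ₂
  refine ⟨ψ₁.compAddMonoidHom (AddMonoidHom.fst (GaloisField 2 3) (ZMod 18))
      * ψ₂.compAddMonoidHom (AddMonoidHom.snd (GaloisField 2 3) (ZMod 18)), ?_⟩
  intro u hu
  have hΨ : ∀ r : GaloisField 2 3 × ZMod 18,
      (ψ₁.compAddMonoidHom (AddMonoidHom.fst (GaloisField 2 3) (ZMod 18))
        * ψ₂.compAddMonoidHom (AddMonoidHom.snd (GaloisField 2 3) (ZMod 18))) r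
        = ψ₁ r.1 * ψ₂ r.2 := by
    intro r
    rw [AddChar.mul_apply, AddChar.compAddMonoidHom_apply, AddChar.compAddMonoidHom_apply]
    rfl
  have h1 : (u : GaloisField 2 3 × ZMod 18).1 = 1 := by
    by_contra hne
    have hne' : (u : GaloisField 2 3 × ZMod 18).1 - 1 ≠ 0 := sub_ne_zero.2 hne
    apply hψ₁ hne'
    ext x
    rw [AddChar.mulShift_apply, AddChar.one_apply, sub_mul, one_mul, AddChar.map_sub_eq_div]
    have := hu (x, 0)
    rw [hΨ, hΨ] at this
    simp only [Prod.fst_mul, Prod.snd_mul, mul_zero, AddChar.map_zero_eq_one, mul_one] at this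
    rw [this]
    exact div_self (AddChar.val_isUnit ψ₁ x).ne_zero
  have h2 : (u : GaloisField 2 3 × ZMod 18).2 = 1 := by
    by_contra hne
    have hne' : (u : GaloisField 2 3 × ZMod 18).2 - 1 ≠ 0 := sub_ne_zero.2 hne
    apply hψ₂ hne'
    ext y
    rw [AddChar.mulShift_apply, AddChar.one_apply, sub_mul, one_mul, AddChar.map_sub_eq_div]
    have := hu (0, y)
    rw [hΨ, hΨ] at this
    simp only [Prod.fst_mul, Prod.snd_mul, mul_zero, AddChar.map_zero_eq_one, one_mul] at this
    rw [this]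
    exact div_self (AddChar.val_isUnit ψ₂ y).ne_zero
  apply Units.ext
  exact Prod.ext h1 h2

theorem card_units_R : Nat.card (GaloisField 2 3 × ZMod 18)ˣ = 42 := by
  rw [Nat.card_congr (MulEquiv.prodUnits (M := GaloisField 2 3) (N := ZMod 18)).toEquiv,
    Nat.card_prod, Nat.card_units, GaloisField.card 2 3 (by norm_num), Nat.card_eq_fintype_card,
    ZMod.card_units_eq_totient]
  have : Nat.totient 18 = 6 := by decide
  rw [this]
  norm_num

/-- [SOLV] -/
theorem pkgSolv : PkgSolv := by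
  obtain ⟨Ψ, hΨ⟩ := exists_char_R
  obtain ⟨inst, χ, hχ, hχ1⟩ := agl_irr (GaloisField 2 3 × ZMod 18) Ψ hΨ
  refine ⟨Agl (GaloisField 2 3 × ZMod 18), inferInstance, inst, agl_solvable _, ?_, χ, hχ, ?_⟩
  · rw [agl_card, Nat.card_prod, GaloisField.card 2 3 (by norm_num), Nat.card_zmod, card_units_R]
    norm_num
  · rw [hχ1, card_units_R]
    norm_num

end concrete

end Cfsg.Agent.Lib.Helper38.DG33
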